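import Mathlib
import Cfsg.Agent.Lib.Helper70.Alp.S3782Defs

set_option autoImplicit false

/-!
Package (H1) `LemDerExt` of the S3782 project (helper70): derived length of an extension.
-/

namespace Cfsg.Agent.Lib.Helper33.Alp

open Cfsg.Agent.Lib.Helper70.Alp

universe u

theorem derivedSeries_le_of_quot {G : Type u} [Group G] (N : Subgroup G) [N.Normal] (a : ℕ)
    (ha : derivedSeries (G ⧸ N) a = ⊥) : derivedSeries G a ≤ N := by
  have h1 : (derivedSeries G a).map (QuotientGroup.mk' N) = derivedSeries (G ⧸ N) a :=
    map_derivedSeries_eq (QuotientGroup.mk'_surjective N) a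
  rw [ha, Subgroup.map_eq_bot_iff, QuotientGroup.ker_mk'] at h1
  exact h1

theorem derivedSeries_add_le_map {G : Type u} [Group G] (N : Subgroup G) (a : ℕ)
    (ha : derivedSeries G a ≤ N) (b : ℕ) :
    derivedSeries G (a + b) ≤ (derivedSeries ↥N b).map N.subtype := by
  induction b with
  | zero =>
    rw [add_zero, derivedSeries_zero, ← MonoidHom.range_eq_map, Subgroup.range_subtype]
    exact ha
  | succ b ih =>
    rw [← add_assoc, derivedSeries_succ, derivedSeries_succ, Subgroup.map_commutator]
    exact Subgroup.commutator_mono ih ih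

/-- Package (H1). -/
theorem lemDerExt : LemDerExt.{u} := by
  intro G _ N _ a b ha hb
  have h1 := derivedSeries_add_le_map N a (derivedSeries_le_of_quot N a ha) b
  rw [hb, Subgroup.map_bot] at h1
  exact le_bot_iff.mp h1

end Cfsg.Agent.Lib.Helper33.Alp
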