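import Mathlib
import Cfsg.Agent.Lib.Helper70.Alp.S3782Defs
import Cfsg.Agent.S3780

set_option autoImplicit false
set_option linter.unusedVariables false
set_option linter.unusedSimpArgs false

/-!
Package (C) `LemSecCard` of the S3782 project (helper70): the order of an invariant abelian
section `A / B` of exponent dividing `p ^ e`.
-/

namespace Cfsg.Agent.Lib.Helper33.Alp

open Cfsg.Agent.Lib.Helper70.Alp

universe u

/-- The subgroup of fixed points of an automorphism. -/
def fixSub {V : Type u} [Group V] (γ : MulAut V) : Subgroup V where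
  carrier := {v | γ v = v}
  mul_mem' := by
    intro a b ha hb
    show γ (a * b) = a * b
    rw [map_mul, ha, hb]
  one_mem' := map_one γ
  inv_mem' := by
    intro a ha
    show γ a⁻¹ = a⁻¹
    rw [map_inv, ha]

theorem card_fixSub {V : Type u} [Group V] (γ : MulAut V) :
    Nat.card {v : V // γ v = v} = Nat.card (fixSub γ) := rfl

/-- The commutative case. -/
theorem sec_card_comm (hG : LemGenCard.{u}) {p : ℕ} [Fact p.Prime] {V : Type u} [CommGroup V]
    [Finite V] (γ : MulAut V) (n e : ℕ) (hV : IsPGroup p V) (hγ : γ ^ p = 1)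
    (hfix : Nat.card {v : V // γ v = v} ≤ p ^ n) (hexp : ∀ v : V, v ^ p ^ e = 1) :
    Nat.card V ≤ p ^ (e * (p * n)) := by
  have hp : p.Prime := Fact.out
  have hp1 : 1 < p := hp.one_lt
  have hp0 : 0 < p := hp.pos
  obtain ⟨m, hm⟩ := (hV.to_subgroup (fixSub γ)).exists_card_eq
  have hm' : Nat.card {v : V // γ v = v} = p ^ m := by rw [card_fixSub, hm]
  have hmn : m ≤ n := by
    rw [hm'] at hfix
    exact (Nat.pow_le_pow_iff_right hp1).mp hfix
  by_cases h1 : γ = 1
  · -- all points fixed
    have hall : Nat.card V = Nat.card {v : V // γ v = v} := by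
      refine Nat.card_congr ((Equiv.subtypeUnivEquiv (fun v => ?_)).symm)
      rw [h1]; rfl
    rcases Nat.eq_zero_or_pos e with he | he
    · subst he
      have htriv : ∀ v : V, v = 1 := by
        intro v
        have := hexp v
        simpa using this
      have : Subsingleton V := ⟨fun a b => by rw [htriv a, htriv b]⟩
      rw [Nat.card_of_subsingleton (1 : V)]
      exact Nat.one_le_pow _ _ hp0
    · rw [hall]
      refine hfix.trans (Nat.pow_le_pow_right hp0 ?_)
      calc n = 1 * (1 * n) := by ring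
        _ ≤ e * (p * n) := Nat.mul_le_mul he (Nat.mul_le_mul hp0 le_rfl)
  · have hord : orderOf γ = p := by
      have hdvd : orderOf γ ∣ p := orderOf_dvd_of_pow_eq_one hγ
      rcases (Nat.dvd_prime hp).mp hdvd with h | h
      · exact absurd (orderOf_eq_one_iff.mp h) h1
      · exact h
    obtain ⟨S, hS, hcl⟩ := Cfsg.Agent.S3780.result hV γ hord m hm'
    have hpe : 0 < p ^ e := Nat.pow_pos hp0
    have h2 := hG S (p ^ e) hpe hcl hexp
    calc Nat.card V ≤ (p ^ e) ^ S.card := h2
      _ ≤ (p ^ e) ^ (p * n) :=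
          Nat.pow_le_pow_right hpe (hS.trans (Nat.mul_le_mul le_rfl hmn))
      _ = p ^ (e * (p * n)) := by rw [← pow_mul]

/-- The same for a group which happens to be commutative. -/
theorem sec_card_grp (hG : LemGenCard.{u}) {p : ℕ} [Fact p.Prime] {W : Type u} [Group W]
    [Finite W] (hc : ∀ a b : W, a * b = b * a) (γ : MulAut W) (n e : ℕ) (hV : IsPGroup p W)
    (hγ : γ ^ p = 1) (hfix : Nat.card {v : W // γ v = v} ≤ p ^ n)
    (hexp : ∀ v : W, v ^ p ^ e = 1) : Nat.card W ≤ p ^ (e * (p * n)) := by
  letI : CommGroup W := { ‹Group W› with mul_comm := hc }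
  exact sec_card_comm hG γ n e hV hγ hfix hexp

theorem map_eq_of_forall_mem {G : Type u} [Group G] [Finite G] (α : MulAut G) (H : Subgroup G)
    (h : ∀ a ∈ H, α a ∈ H) : H.map (α : G ≃* G).toMonoidHom = H := by
  have hle : H.map (α : G ≃* G).toMonoidHom ≤ H := by
    rintro _ ⟨a, ha, rfl⟩
    exact h a ha
  refine Subgroup.eq_of_le_of_card_ge hle ?_
  rw [Subgroup.card_map_of_injective (α : G ≃* G).injective]

/-- Package (C). -/
theorem lemSecCard (hA : LemFixQuot.{u}) (hG : LemGenCard.{u}) : LemSecCard.{u} := by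
  intro p _ N _ _ α n e hN hαp hfix A B hBA hnorm hcomm hαA hαB hexp
  have hmapA : A.map (α : N ≃* N).toMonoidHom = A := map_eq_of_forall_mem α A hαA
  have hB'n : (B.subgroupOf A).Normal := by
    constructor
    intro b hb a
    rw [Subgroup.mem_subgroupOf] at hb ⊢
    exact hnorm a.1 a.2 b.1 hb
  have hmapB' : (B.subgroupOf A).map ((resAut α A hmapA : ↥A ≃* ↥A)).toMonoidHom
      = B.subgroupOf A := by
    apply map_eq_of_forall_mem
    intro b hb
    rw [Subgroup.mem_subgroupOf] at hb ⊢
    rw [resAut_apply]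
    exact hαB _ hb
  have hc : ∀ x y : ↥A ⧸ B.subgroupOf A, x * y = y * x := by
    intro x y
    induction x using QuotientGroup.induction_on with
    | H a =>
      induction y using QuotientGroup.induction_on with
      | H a' =>
        rw [← QuotientGroup.mk_mul, ← QuotientGroup.mk_mul]
        symm
        rw [QuotientGroup.eq, Subgroup.mem_subgroupOf]
        have := hcomm a.1⁻¹ (A.inv_mem a.2) a'.1⁻¹ (A.inv_mem a'.2)
        simpa [mul_assoc] using this
  have hγp : (quotAut (resAut α A hmapA) (B.subgroupOf A) hmapB') ^ p = 1 :=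
    quotAut_pow_eq_one _ _ _ (resAut_pow_eq_one α A hmapA hαp)
  have hfix' : Nat.card {x : ↥A ⧸ B.subgroupOf A //
      quotAut (resAut α A hmapA) (B.subgroupOf A) hmapB' x = x} ≤ p ^ n :=
    ((hA (resAut α A hmapA) (B.subgroupOf A) hmapB').trans
      (card_fix_resAut_le α A hmapA)).trans hfix
  have hV : IsPGroup p (↥A ⧸ B.subgroupOf A) := (hN.to_subgroup A).to_quotient _
  have hexp' : ∀ v : ↥A ⧸ B.subgroupOf A, v ^ p ^ e = 1 := by
    intro v
    induction v using QuotientGroup.induction_on with
    | H a =>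
      rw [← QuotientGroup.mk_pow, QuotientGroup.eq_one_iff, Subgroup.mem_subgroupOf]
      exact hexp a.1 a.2
  have hcard := sec_card_grp hG hc
    (quotAut (resAut α A hmapA) (B.subgroupOf A) hmapB') n e hV hγp hfix' hexp'
  have e1 : Nat.card ↥A = Nat.card (↥A ⧸ B.subgroupOf A) * Nat.card (B.subgroupOf A) :=
    Subgroup.card_eq_card_quotient_mul_card_subgroup _
  have e2 : Nat.card (B.subgroupOf A) = Nat.card B :=
    Nat.card_congr (Subgroup.subgroupOfEquivOfLe hBA).toEquiv
  rw [e1, e2]
  exact Nat.mul_le_mul hcard le_rfl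

end Cfsg.Agent.Lib.Helper33.Alp
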